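import Mathlib
import Cfsg.Prelude.Def_SevenCases
import Cfsg.Agent.GenOrth.Ord
import Cfsg.Agent.SevenCases.ResOf
import Cfsg.Agent.SevenCases.RkTwo
import Cfsg.Agent.LieClassical.OrthFinite
import Cfsg.Agent.S0243

/-!
# A criterion for `InGp 2`

`inGp_two` : `K` quasisimple with `Z(K)` a 2-group and `X = K / Z(K)` known is a `G₂`-group if `X` has a component in
`C(x) / O(C(x))` for some involution `x`, `K` and `X` are not `L₂(q)`, `q` odd, and `|X|` is not in the table `Ord.Tab`.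

The facts used as hypotheses: `CharTwoComp` (the statement of S1787) and `CardTab` (the orders of the members of the
`C₂` list).
-/

set_option autoImplicit false

namespace Cfsg.Agent.GenOrth.Gp

open Cfsg Subgroup

universe u

/-- the members of the `C₂` list are `L₂(q)`, `q` odd, or have order in the table -/
def CardTab : Prop := ∀ (K : Type u) [Group K], IsCTwoListed K →
  (∃ (F : Type) (_ : Field F) (_ : Fintype F), Odd (Fintype.card F) ∧
      Nonempty (K ≃* Matrix.ProjectiveSpecialLinearGroup (Fin 2) F)) ∨ ∃ L ∈ Ord.Tab, Nat.card K = Ord.val L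

/-- `K` is not `L₂(q)`, `q` odd -/
def NoPsl (K : Type u) [Group K] : Prop :=
  ∀ (F : Type) [Field F] [Fintype F], Odd (Fintype.card F) →
    ¬ Nonempty (K ≃* Matrix.ProjectiveSpecialLinearGroup (Fin 2) F)

theorem noPsl_of_rank {K : Type u} [Group K] [Finite K] (h : PRankAtLeast 2 3 K) : NoPsl K := by
  rintro F _ _ hF ⟨e⟩
  obtain ⟨A, h1, h2, h3⟩ := h
  have h4 := SevenCases.rk_psl2 K ⟨F, inferInstance, inferInstance, 2, hF, rfl, ⟨e⟩⟩
  have h5 := h4 A h1 h2
  omega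

theorem mem_tab {L : List (ℕ × ℕ)} (h : L ∈ Ord.Tab) : L ∈ Ord.TabAll := List.mem_append_left _ h

section

variable {K : Type u} [Group K] [Finite K]

theorem card_alt_tab {X : Type u} [Group X] {n N : ℕ} (hn : 2 ≤ n) (h : n.factorial = 2 * N)
    (e : X ≃* alternatingGroup (Fin n)) : Nat.card X = N := by
  rw [Nat.card_congr e.toEquiv, SevenCases.card_alt_eq n N hn h]

omit [Finite K] in
theorem not_alt (ho : ∀ L ∈ Ord.Tab, Nat.card (K ⧸ center K) ≠ Ord.val L) (h8 : 8 ∣ Nat.card (K ⧸ center K)) {n : ℕ}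
    (hn : n = 2 ∨ n = 4 ∨ n = 6 ∨ n = 7 ∨ n = 8 ∨ n = 9 ∨ n = 10 ∨ n = 11) :
    ¬ Nonempty (K ⧸ center K ≃* alternatingGroup (Fin n)) := by
  rintro ⟨e⟩
  rcases hn with rfl | rfl | rfl | rfl | rfl | rfl | rfl | rfl
  · rw [card_alt_tab (N := 1) (by norm_num) (by decide) e] at h8
    revert h8; decide
  · rw [card_alt_tab (N := 12) (by norm_num) (by decide) e] at h8
    revert h8; decide
  · exact ho [(2, 3), (3, 2), (5, 1)] (by decide) (card_alt_tab (by norm_num) (by decide) e)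
  · exact ho [(2, 3), (3, 2), (5, 1), (7, 1)] (by decide) (card_alt_tab (by norm_num) (by decide) e)
  · exact ho [(2, 6), (3, 2), (5, 1), (7, 1)] (by decide) (card_alt_tab (by norm_num) (by decide) e)
  · exact ho [(2, 6), (3, 4), (5, 1), (7, 1)] (by decide) (card_alt_tab (by norm_num) (by decide) e)
  · exact ho [(2, 7), (3, 4), (5, 2), (7, 1)] (by decide) (card_alt_tab (by norm_num) (by decide) e)
  · exact ho [(2, 7), (3, 4), (5, 2), (7, 1), (11, 1)] (by decide) (card_alt_tab (by norm_num) (by decide) e)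

theorem card_psl3_four {X : Type u} [Group X] {F : Type} [Field F] [Fintype F] (hF : Fintype.card F = 4)
    (e : X ≃* Matrix.ProjectiveSpecialLinearGroup (Fin 3) F) : Nat.card X = 20160 := by
  have h := S0243.result (F := F) (q := 4) hF 3 (by norm_num)
  rw [show Nat.gcd 3 (4 - 1) = 3 from rfl, Fin.prod_univ_three] at h
  norm_num at h
  rw [Nat.card_congr e.toEquiv]
  omega

theorem eight_dvd (h : PRankAtLeast 2 3 K) : 8 ∣ Nat.card K := by
  obtain ⟨A, h1, h2, h3⟩ := h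
  have hA : IsPGroup 2 ↥A := fun a => ⟨1, by
    rw [pow_one]
    exact Subtype.ext (h2 a.1 a.2)⟩
  obtain ⟨n, hn⟩ := IsPGroup.iff_card.1 hA
  have h4 : 2 ^ 3 ∣ Nat.card ↥A := by
    rw [hn] at h3 ⊢
    exact Nat.pow_dvd_pow 2 ((Nat.pow_le_pow_iff_right (by norm_num)).1 h3)
  exact (h4.trans (Subgroup.card_subgroup_dvd_card A))

theorem not_inC (hS : SevenCases.CharTwoComp.{u}) (hT : CardTab.{u}) (hna : ¬ IsMulCommutative (K ⧸ center K))
    (hs : IsSimpleGroup (K ⧸ center K)) (hX : NoPsl (K ⧸ center K))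
    (hc : LpExists 2 (K ⧸ center K) (fun _ _ => True)) (h8 : 8 ∣ Nat.card (K ⧸ center K))
    (ho : ∀ L ∈ Ord.Tab, Nat.card (K ⧸ center K) ≠ Ord.val L) : ¬ InC 2 K := by
  rintro ⟨-, -, h, -⟩
  rcases h with h | ⟨n, hn, h⟩ | ⟨-, h⟩ | ⟨h, -⟩ | ⟨h, -⟩ | ⟨h, -⟩ | ⟨h, -⟩
  · obtain ⟨x, hx, J, hJ, -⟩ := hc
    have := hs
    exact (hS (K ⧸ center K) hna h).1 x hx J hJ
  · exact not_alt ho h8 (by omega) h
  · rcases hT _ h with ⟨F, _, _, hF, h⟩ | ⟨L, hL, h⟩
    · exact hX F hF h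
    · exact ho L hL h
  all_goals omega

omit [Finite K] in
theorem not_inT (hK : NoPsl K) (hX : NoPsl (K ⧸ center K)) (h8 : 8 ∣ Nat.card (K ⧸ center K))
    (ho : ∀ L ∈ Ord.Tab, Nat.card (K ⧸ center K) ≠ Ord.val L) (h7 : Nat.card K ≠ 2520) : ¬ InT 2 K := by
  rintro ⟨-, -, -, -, h⟩
  rcases h with ⟨-, h⟩ | ⟨h, -⟩ | ⟨h, -⟩ | ⟨h, -⟩
  · rcases h with ⟨F, _, _, hF, -, h⟩ | h | ⟨F, _, _, hF, ⟨e⟩⟩ | ⟨-, n, h7, h11, h⟩ | ⟨⟨F, _, _, hF, ⟨e⟩⟩, -⟩
    · exact hK F hF h
    · obtain ⟨e⟩ := h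
      exact h7 (card_alt_tab (by norm_num) (by decide) e)
    · exact hX F hF ⟨LieClassical.OrthFinite.quotientCenterCongr e⟩
    · exact not_alt ho h8 (by omega) h
    · exact ho [(2, 6), (3, 2), (5, 1), (7, 1)] (by decide) (card_psl3_four hF e)
  · omega
  · omega
  · omega

omit [Finite K] in
theorem not_comm (hq : IsQuasisimple K) : ¬ IsMulCommutative (K ⧸ center K) := by
  intro h
  have h1 : commutator K ≤ center K := by
    rw [commutator_def, commutator_le]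
    intro a _ b _
    rw [← QuotientGroup.eq_one_iff]
    have h2 := h.is_comm.comm (a : K ⧸ center K) (b : K ⧸ center K)
    rw [commutatorElement_def, QuotientGroup.mk_mul, QuotientGroup.mk_mul, QuotientGroup.mk_mul, h2,
      QuotientGroup.mk_inv, QuotientGroup.mk_inv]
    group
  have h3 : commutator K = ⊤ := hq.1.commutator_eq_top
  rw [h3, top_le_iff] at h1
  have h4 := hq.2.1
  obtain ⟨a, b, hab⟩ := h4.exists_pair_ne
  apply hab
  obtain ⟨a, rfl⟩ := QuotientGroup.mk_surjective a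
  obtain ⟨b, rfl⟩ := QuotientGroup.mk_surjective b
  rw [(QuotientGroup.eq_one_iff a).2 (by rw [h1]; trivial), (QuotientGroup.eq_one_iff b).2 (by rw [h1]; trivial)]

/-- **The criterion.** -/
theorem inGp_two (hS : SevenCases.CharTwoComp.{u}) (hT : CardTab.{u}) (hq : IsQuasisimple K)
    (hz : IsPGroup 2 ↥(center K)) (hk : IsKnownSimple' (K ⧸ center K)) (hK : NoPsl K) (hX : NoPsl (K ⧸ center K))
    (hc : LpExists 2 (K ⧸ center K) (fun _ _ => True)) (h8 : 8 ∣ Nat.card (K ⧸ center K))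
    (ho : ∀ L ∈ Ord.Tab, Nat.card (K ⧸ center K) ≠ Ord.val L) (h7 : Nat.card K ≠ 2520) : InGp 2 K :=
  ⟨hq, hz, hk, not_inC hS hT (not_comm hq) hq.2 hX hc h8 ho, not_inT hK hX h8 ho h7⟩

/-- the case of 2-rank at least three -/
theorem inGp_two_of_rank (hS : SevenCases.CharTwoComp.{u}) (hT : CardTab.{u}) (hq : IsQuasisimple K)
    (hz : IsPGroup 2 ↥(center K)) (hk : IsKnownSimple' (K ⧸ center K)) (hK : PRankAtLeast 2 3 K)
    (hX : PRankAtLeast 2 3 (K ⧸ center K)) (hc : LpExists 2 (K ⧸ center K) (fun _ _ => True))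
    (ho : ∀ L ∈ Ord.Tab, Nat.card (K ⧸ center K) ≠ Ord.val L) : InGp 2 K := by
  refine inGp_two hS hT hq hz hk (noPsl_of_rank hK) (noPsl_of_rank hX) hc (eight_dvd hX) ho ?_
  intro h7
  have h1 := eight_dvd hX
  have h2 : Nat.card (K ⧸ center K) ∣ Nat.card K := Subgroup.card_quotient_dvd_card _
  have h3 := Subgroup.card_eq_card_quotient_mul_card_subgroup (center K)
  obtain ⟨n, hn⟩ := IsPGroup.iff_card.1 hz
  rw [h7, hn] at h3
  rcases Nat.eq_zero_or_pos n with rfl | hn0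
  · rw [pow_zero, mul_one] at h3
    exact ho [(2, 3), (3, 2), (5, 1), (7, 1)] (by decide) h3.symm
  · obtain ⟨a, ha⟩ := h1
    obtain ⟨b, hb⟩ := dvd_pow_self 2 hn0.ne'
    rw [ha, hb] at h3
    have : 16 * (a * b) = 2520 := by rw [h3]; ring
    omega

end

end Cfsg.Agent.GenOrth.Gp
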