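import Mathlib
import Cfsg.Agent.GenOrth.Rows
import Cfsg.Agent.GenOrth.Ord
import Cfsg.Agent.OddTab.Crit
import Cfsg.Agent.S0245
import Cfsg.Agent.S0246
import Cfsg.Agent.S0280
import Cfsg.Agent.S0293
import Cfsg.Agent.S0301
import Cfsg.Agent.S0302
import Cfsg.Agent.S0303

/-!
# The `G₂`-facts `OrthGp` from S1787 (`EmptyTwo`) and the orders of the `C₂` list (`ListOrd`)
-/

set_option autoImplicit false

namespace Cfsg.Agent.GenOrth

open QuadraticMap Cfsg Subgroup
open Cfsg.Agent.LieClassical.OrthCore Cfsg.Agent.LieClassical.OrthTrans Cfsg.Agent.LieClassical.OrthSimple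
open Cfsg.Agent.LieClassical.OrthForms Cfsg.Agent.LieClassical.OrthFinite
open Cfsg.Agent.TitsThree.KSideO

universe u

section

variable {F : Type} [Field F] [Fintype F]

theorem odd_of_two_ne_zero (h2 : (2 : F) ≠ 0) : Odd (Fintype.card F) := by
  rw [Nat.odd_iff]
  apply FiniteField.odd_card_of_char_ne_two
  intro h
  apply h2
  have := ringChar.Nat.cast_ringChar (R := F)
  rw [h] at this
  exact_mod_cast this

theorem exists_sq_field (F : Type) [Field F] [Fintype F] :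
    ∃ (K : Type) (_ : Field K) (_ : Fintype K), Fintype.card K = Fintype.card F ^ 2 := by
  obtain ⟨p, f, hp, hf, h⟩ := FiniteField.isPrimePow_card F
  have hp' : Fact p.Prime := ⟨Nat.prime_iff.2 hp⟩
  letI : Fintype (GaloisField p (f * 2)) := Fintype.ofFinite _
  refine ⟨GaloisField p (f * 2), inferInstance, inferInstance, ?_⟩
  rw [← Nat.card_eq_fintype_card, GaloisField.card p (f * 2) (by omega), ← h, pow_mul]

omit [Fintype F] in
theorem finite_E {V : Type*} [AddCommGroup V] [Module F V] [Finite V] (Q : QuadraticForm F V) : Finite ↥(E Q) := by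
  have : Finite (V ≃ₗ[F] V) := Finite.of_injective (fun g => (g : V → V)) DFunLike.coe_injective
  infer_instance

/-- the quotient by the centre -/
noncomputable def quotEquiv {ι : Type} [Fintype ι] [DecidableEq ι] {Q : QuadraticForm F (ι → F)} (hG : Good Q) :
    E Q ⧸ center ↥(E Q) ≃* Cfsg.POmega F ⇑Q := quotientCenterCongr (toOmega hG)

theorem card_psp2 (ho : Odd (Fintype.card F)) : 2 * Nat.card (PSp 2 F) =
    Fintype.card F ^ 4 * ((Fintype.card F ^ 2 - 1) * (Fintype.card F ^ 4 - 1)) := by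
  have h1 := S0245.result (F := F) rfl 2
  have h2 := S0246.result (F := F) rfl 2 (by norm_num)
  have h3 := Subgroup.card_eq_card_quotient_mul_card_subgroup (Subgroup.center (Matrix.symplecticGroup (Fin 2) F))
  rw [h1, h2] at h3
  have h4 : Nat.gcd 2 (Fintype.card F - 1) = 2 := by
    obtain ⟨k, hk⟩ := ho
    rw [hk, Nat.add_sub_cancel]
    exact Nat.gcd_eq_left (Dvd.intro k rfl)
  rw [h4] at h3
  simp only [Finset.prod_range_succ, Finset.prod_range_zero, one_mul] at h3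
  norm_num at h3
  rw [h3, mul_comm]

theorem card_psl4 : Nat.gcd 4 (Fintype.card F - 1) * Nat.card (Matrix.ProjectiveSpecialLinearGroup (Fin 4) F) =
    Fintype.card F ^ 6 * ((Fintype.card F ^ 2 - 1) * (Fintype.card F ^ 3 - 1) * (Fintype.card F ^ 4 - 1)) := by
  have h := S0243.result (F := F) rfl 4 (by norm_num)
  have hq : 1 < Fintype.card F := Fintype.one_lt_card
  obtain ⟨q, hq'⟩ : ∃ q, q = Fintype.card F := ⟨_, rfl⟩
  rw [← hq'] at h hq ⊢
  obtain ⟨k, rfl⟩ : ∃ k, q = k + 2 := ⟨q - 2, by omega⟩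
  have e : ∏ i : Fin 4, ((k + 2) ^ 4 - (k + 2) ^ (i : ℕ)) = (k + 2 - 1) * ((k + 2) ^ 6 *
      (((k + 2) ^ 2 - 1) * ((k + 2) ^ 3 - 1) * ((k + 2) ^ 4 - 1))) := by
    rw [Fin.prod_univ_four]
    have a0 : (k + 2) ^ 4 - (k + 2) ^ ((0 : Fin 4) : ℕ) = (k + 2) ^ 4 - 1 := by simp
    have a1 : (k + 2) ^ 4 - (k + 2) ^ ((1 : Fin 4) : ℕ) = (k + 2) * ((k + 2) ^ 3 - 1) := by
      rw [Nat.mul_sub]; simp; ring_nf
    have a2 : (k + 2) ^ 4 - (k + 2) ^ ((2 : Fin 4) : ℕ) = (k + 2) ^ 2 * ((k + 2) ^ 2 - 1) := by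
      rw [Nat.mul_sub]; simp; ring_nf
    have a3 : (k + 2) ^ 4 - (k + 2) ^ ((3 : Fin 4) : ℕ) = (k + 2) ^ 3 * (k + 2 - 1) := by
      rw [Nat.mul_sub]; simp; ring_nf
    rw [a0, a1, a2, a3]
    ring
  rw [e] at h
  have h0 : 0 < k + 2 - 1 := by omega
  have h5 : (k + 2 - 1) * (Nat.gcd 4 (k + 2 - 1) * Nat.card (Matrix.ProjectiveSpecialLinearGroup (Fin 4) F)) =
      (k + 2 - 1) * ((k + 2) ^ 6 * (((k + 2) ^ 2 - 1) * ((k + 2) ^ 3 - 1) * ((k + 2) ^ 4 - 1))) := by
    rw [← h]; ring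
  exact Nat.eq_of_mul_eq_mul_left h0 h5

theorem card_psu4 {q : ℕ} (hF : Fintype.card F = q ^ 2) : Nat.gcd 4 (q + 1) * Nat.card (PSU 4 F q) =
    q ^ 6 * ((q ^ 2 - 1) * (q ^ 3 + 1) * (q ^ 4 - 1)) := by
  have h := S0280.result (F := F) hF 4 (by norm_num)
  simp only [Finset.prod_range_succ, Finset.prod_range_zero] at h
  rw [if_pos (by decide), if_neg (by decide), if_pos (by decide), if_neg (by decide)] at h
  norm_num at h
  have h0 : 0 < q + 1 := by omega
  have h5 : (q + 1) * (Nat.gcd 4 (q + 1) * Nat.card (PSU 4 F q)) =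
      (q + 1) * (q ^ 6 * ((q ^ 2 - 1) * (q ^ 3 + 1) * (q ^ 4 - 1))) := by
    linarith [h]
  exact Nat.eq_of_mul_eq_mul_left h0 h5

variable (h87 : OddTab.Crit.EmptyTwo.{0}) (hl : OddTab.Crit.ListOrd.{0})

include h87 hl

theorem gp_o5 (h2 : (2 : F) ≠ 0) (h3 : 3 < Fintype.card F) : InGp 2 ↥(E (oddForm 2 F)) := by
  have hodd := odd_of_two_ne_zero h2
  have hG : Good (oddForm 2 F) := good_odd le_rfl h2
  obtain ⟨f⟩ := pomega_congr (coe_oddForm 2 F).symm (quotEquiv hG)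
  obtain ⟨g⟩ := S0301.result hodd
  have e := f.trans g
  have : Finite ↥(E (oddForm 2 F)) := finite_E _
  refine OddTab.Crit.inGp_of_long h87 hl (isQuasisimple_E hG) (center_two hG) ?_
    (OddHalf.LongSL.hasLong_of_rk (OddTab.oddPow_of_field hodd)
      (Or.inr (Or.inl ⟨F, inferInstance, inferInstance, 2, rfl, le_rfl, ⟨e⟩⟩))) h3 ?_
  · exact Or.inr (Or.inr (Or.inr (Or.inl ⟨F, inferInstance, inferInstance, 2, le_rfl, fun _ => by omega, ⟨e⟩⟩)))
  · intro L hL
    rw [Nat.card_congr e.toEquiv]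
    exact Ord.psp4.ne (FiniteField.isPrimePow_card F) hodd (by simp) (card_psp2 hodd) (List.mem_append_left _ hL)

theorem gp_p6 (h2 : (2 : F) ≠ 0) (h3 : 3 < Fintype.card F) : InGp 2 ↥(E (plusForm 3 F)) := by
  have hodd := odd_of_two_ne_zero h2
  have hG : Good (plusForm 3 F) := good_plus le_rfl
  obtain ⟨f⟩ := pomega_congr (coe_plusForm 3 F).symm (quotEquiv hG)
  obtain ⟨g⟩ := S0302.result (F := F)
  have e := f.trans g
  have : Finite ↥(E (plusForm 3 F)) := finite_E _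
  refine OddTab.Crit.inGp_of_long h87 hl (isQuasisimple_E hG) (center_two hG) ?_
    (OddHalf.LongSL.hasLong_of_rk (OddTab.oddPow_of_field hodd)
      (Or.inl ⟨F, inferInstance, inferInstance, 4, rfl, by norm_num, ⟨e⟩⟩)) h3 ?_
  · exact Or.inr (Or.inr (Or.inl ⟨F, inferInstance, inferInstance, 4, by norm_num, fun h => by omega, ⟨e⟩⟩))
  · intro L hL
    rw [Nat.card_congr e.toEquiv]
    exact Ord.psl4.ne (FiniteField.isPrimePow_card F) hodd (by simp; omega) card_psl4 (List.mem_append_left _ hL)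

theorem gp_m6 {a b : F} (h2 : (2 : F) ≠ 0) (h3 : 3 < Fintype.card F) (hab : Aniso a b) :
    InGp 2 ↥(E (minusForm 2 F a b)) := by
  have hodd := odd_of_two_ne_zero h2
  have hG : Good (minusForm 2 F a b) := good_minus le_rfl hab
  obtain ⟨K, _, _, hK⟩ := exists_sq_field F
  obtain ⟨f⟩ := pomega_congr (coe_minusForm 2 F a b).symm (quotEquiv hG)
  obtain ⟨g⟩ := S0303.result rfl hK a b hab
  have e := f.trans g
  have : Finite ↥(E (minusForm 2 F a b)) := finite_E _
  refine OddTab.Crit.inGp_of_long h87 hl (isQuasisimple_E hG) (center_two hG) ?_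
    (OddHalf.LongSL.hasLong_of_rk (OddTab.oddPow_of_field hodd)
      (Or.inr (Or.inr (Or.inl ⟨K, inferInstance, inferInstance, 4, hK, by norm_num, ⟨e⟩⟩)))) h3 ?_
  · exact Or.inr (Or.inr (Or.inr (Or.inr (Or.inl ⟨K, inferInstance, inferInstance, 4, _, hK, by norm_num,
      fun h => by omega, ⟨e⟩⟩))))
  · intro L hL
    rw [Nat.card_congr e.toEquiv]
    exact Ord.psu4.ne (FiniteField.isPrimePow_card F) hodd (by simp; omega) (card_psu4 hK) (List.mem_append_left _ hL)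

theorem gp_p8 (h2 : (2 : F) ≠ 0) : InGp 2 ↥(E (plusForm 4 F)) := by
  have hodd := odd_of_two_ne_zero h2
  have hG : Good (plusForm 4 F) := good_plus (by norm_num)
  have f := quotEquiv hG
  obtain ⟨e⟩ := pomega_congr (coe_plusForm 4 F).symm f
  have : Finite ↥(E (plusForm 4 F)) := finite_E _
  have hcard : Nat.gcd 4 (Fintype.card F ^ 4 - 1) * Nat.card (E (plusForm 4 F) ⧸ center ↥(E (plusForm 4 F))) =
      Fintype.card F ^ 12 * ((Fintype.card F ^ 4 - 1) *
        ((Fintype.card F ^ 2 - 1) * (Fintype.card F ^ 4 - 1) * (Fintype.card F ^ 6 - 1))) := by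
    rw [Nat.card_congr e.toEquiv]
    have h := S0293.result (F := F) rfl 4 le_rfl
    simp only [Finset.prod_range_succ, Finset.prod_range_zero] at h
    norm_num at h
    rw [h]
    ring
  have ho : ∀ L ∈ Ord.Tab, Nat.card (E (plusForm 4 F) ⧸ center ↥(E (plusForm 4 F))) ≠ Ord.val L := by
    intro L hL
    exact Ord.om8.ne (FiniteField.isPrimePow_card F) hodd (by simp) hcard (List.mem_append_left _ hL)
  have h12 : 12 < Nat.card (E (plusForm 4 F) ⧸ center ↥(E (plusForm 4 F))) := by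
    by_contra hlt
    push Not at hlt
    have a1 : Nat.gcd 4 (Fintype.card F ^ 4 - 1) ≤ 4 := Nat.gcd_le_left _ (by norm_num)
    have a2 : 0 < Nat.gcd 4 (Fintype.card F ^ 4 - 1) := Nat.gcd_pos_of_pos_left _ (by norm_num)
    have a3 : 0 < Nat.card (E (plusForm 4 F) ⧸ center ↥(E (plusForm 4 F))) := Nat.card_pos
    have a4 := Nat.mul_pos a2 a3
    rw [hcard] at a4
    have a5 : 0 < (Fintype.card F ^ 4 - 1) *
        ((Fintype.card F ^ 2 - 1) * (Fintype.card F ^ 4 - 1) * (Fintype.card F ^ 6 - 1)) :=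
      Nat.pos_of_mul_pos_left a4
    have a6 := Nat.le_mul_of_pos_right (Fintype.card F ^ 12) a5
    rw [← hcard] at a6
    have a7 := Nat.mul_le_mul a1 hlt
    have a8 : 3 ≤ Fintype.card F := by
      obtain ⟨k, hk⟩ := hodd
      have := Fintype.one_lt_card (α := F)
      omega
    have a9 := Nat.pow_le_pow_left a8 12
    have a10 : (3 : ℕ) ^ 12 = 531441 := by norm_num
    omega
  have hk : IsKnownSimple' (E (plusForm 4 F) ⧸ center ↥(E (plusForm 4 F))) :=
    Or.inr (Or.inr (Or.inr (Or.inr (Or.inr (Or.inr (Or.inl ⟨F, inferInstance, inferInstance, 4, le_rfl, ⟨e⟩⟩))))))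
  have key : ∀ {V' : Type} [AddCommGroup V'] [Module F V'] {Q' : QuadraticForm F V'}, Good Q' →
      HasEmb (plusForm 4 F) Q' → InGp 2 ↥(E (plusForm 4 F)) := by
    intro V' _ _ Q' hG' he
    obtain ⟨em, ε, t, hε, htE, ht, v₀, hv₀, hπ⟩ := he
    obtain ⟨x, K, hx, -, hK, ⟨i⟩⟩ := comp_of_emb hG f h2 hG' em hε htE ht hv₀ hπ
    refine OddTab.Crit.inGp_of_comp h87 hl (isQuasisimple_E hG) (center_two hG) hk h12 hx hK ho
  rcases hasEmb_eight hG h2 (by rw [Module.finrank_fintype_fun_eq_card]; simp) with h | ⟨a, b, hab, h⟩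
  · exact key (good_plus (F := F) (m := 3) (by norm_num)) h
  · exact key (good_minus (F := F) (m := 2) (by norm_num) hab) h

end

/-- **the `G₂`-facts** -/
theorem orthGp (h87 : OddTab.Crit.EmptyTwo.{0}) (hl : OddTab.Crit.ListOrd.{0}) : OrthGp where
  o5 _ _ _ h2 h3 := gp_o5 h87 hl h2 h3
  p6 _ _ _ h2 h3 := gp_p6 h87 hl h2 h3
  m6 _ _ _ _ _ h2 h3 hab := gp_m6 h87 hl h2 h3 hab
  p8 _ _ _ h2 := gp_p8 h87 hl h2

end Cfsg.Agent.GenOrth
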